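/-
SE.Cube1: characters of a Zassenhaus group whose root group is a Suzuki 2-group of order `q³`.
-/
import Cfsg.Agent.SE.Sg2
import Cfsg.Agent.H3.Zass2

set_option autoImplicit false

namespace SE
open Subgroup H9 L H3 Cfsg MulAction
open scoped commutatorElement ComplexConjugate
universe u
variable {G : Type u} [Group G] {F : Type*} [Field F]

theorem SG.cls3 [Finite F] [CharP F 2] [Finite G] {P Z K : Subgroup G} {π ψ : G → F} (h : SG P Z K π ψ) (hΦ : Phi P ≤ Z)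
    (hc : Nat.card P = Nat.card F ^ 3) {x z : G} (hx : x ∈ P) (h1 : x ∉ Z) (hz : z ∈ Z) : ∃ y ∈ P, y * x * y⁻¹ = z * x := by
  let I : AddSubgroup F :=
    { carrier := {c | ∃ u ∈ P, π ⁅x, u⁆ = c}
      add_mem' := by rintro _ _ ⟨u, hu, rfl⟩ ⟨v, hv, rfl⟩; exact ⟨_, P.mul_mem hu hv, h.c_right hΦ hx hu hv⟩
      zero_mem' := ⟨1, P.one_mem, by rw [commutatorElement_one_right, h.co.one]⟩
      neg_mem' := by rintro _ ⟨u, hu, rfl⟩; exact ⟨u, hu, by linear_combination π ⁅x, u⁆ * two0 (F := F)⟩ }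
  have q := h.q2
  have : I = ⊤ := by_contra fun e => by
    rcases h.gauss hΦ (fun e => h1 (e ▸ hx)) e with e1 | e1
    · rw [hc, Nat.pow_right_inj (by omega)] at e1; omega
    · exact h1 (e1.2 x hx fun u hu => ⟨u, hu, rfl⟩)
  obtain ⟨u, hu, e⟩ : π z ∈ I := this ▸ AddSubgroup.mem_top _
  refine ⟨u, hu, ?_⟩
  rw [← inv_eq_self (h.Zsq hz), ← h.Zeq (h.cZ hΦ hx hu) hz e, commutatorElement_def]; group

theorem cube_arith {q w v ε : ℤ} (hq : 4 ≤ q) (hw : 0 ≤ w) (hv : 0 ≤ v) (hε : ε = 1 ∨ ε = -1) (h1 : 0 ≤ w + ε)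
    (h : (q ^ 3 + 1) * (q * w ^ 2 + (w + ε) ^ 2 + v ^ 2 - 1) ≤ (q - 1) * (q * w + (w + ε) + q * v) ^ 2) : w = 0 ∧ ε = 1 ∧ v ≤ 1 := by
  have e2 : ε ^ 2 = 1 := by rcases hε with rfl | rfl <;> norm_num
  have u0 : 0 < q * w + (w + ε) + q * v := by
    rcases hε with rfl | rfl
    · positivity
    · nlinarith
  have key : 0 < q * (q - 1 - ((q + 1) * w ^ 2 + 2 * ε * w)) - ((q - 1) * (q * w + (w + ε)) - q * v) ^ 2 := by
    have e : (q ^ 3 + 1) * (q * (q - 1 - ((q + 1) * w ^ 2 + 2 * ε * w)) - ((q - 1) * (q * w + (w + ε)) - q * v) ^ 2) =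
        (q - 1) * (q * w + (w + ε) + q * v) ^ 2 + q ^ 3 * ((q - 1) * (q * w + (w + ε) + q * v) ^ 2 -
          (q ^ 3 + 1) * (q * w ^ 2 + (w + ε) ^ 2 + v ^ 2 - 1)) := by
      rcases hε with rfl | rfl <;> ring
    refine pos_of_mul_pos_left (b := q ^ 3 + 1) ?_ (by positivity) |> fun h => h
    rw [mul_comm, e]
    have := mul_nonneg (by positivity : 0 ≤ q ^ 3) (sub_nonneg.2 h)
    have := mul_pos (by omega : 0 < q - 1) (pow_pos u0 2)
    linarith
  obtain rfl : w = 0 := by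
    by_contra w0
    have : 1 ≤ w := by omega
    have : q - 1 ≤ (q + 1) * w ^ 2 + 2 * ε * w := by
      have : w ≤ w ^ 2 := by nlinarith
      rcases hε with rfl | rfl <;> nlinarith
    nlinarith [sq_nonneg ((q - 1) * (q * w + (w + ε)) - q * v)]
  obtain rfl : ε = 1 := by omega
  refine ⟨rfl, rfl, by_contra fun v2 => ?_⟩
  have : 2 ≤ v := by omega
  have : q + 1 ≤ q * v - (q - 1) := by nlinarith
  nlinarith

variable {Ω : Type*} [MulAction G Ω] {a b : Ω} {Q : Subgroup G}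

open Classical in
theorem sum_fpf [Fintype G] [Finite Ω] [Fintype (stabilizer G a)] (z : ZG a b Q) {f : G → ℂ} (hf : IsClassFunction G f)
    (h0 : ∀ x : stabilizer G a, (x : G) ∉ Q → f x = 0) : ∑ g with ∀ c : Ω, g • c ≠ c, f g =
    ∑ g, f g - (Nat.card Q + 1) * ∑ x : stabilizer G a, f x + Nat.card Q * f 1 := by
  haveI := z.trans
  have e := sum_indFun_mul (stabilizer G a) (fun _ => 1) hf
  have k : ∀ g, indFun (stabilizer G a) (fun _ => 1) g * f g =
      f g - (if ∀ c : Ω, g • c ≠ c then f g else 0) + if g = 1 then Nat.card Q * f 1 else 0 := fun g => by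
    by_cases g1 : g = 1
    · rw [g1, indFun_one, z.indexN, if_neg (fun e => e a (one_smul _ a)), if_pos rfl]; push_cast; ring
    by_cases g2 : ∀ c : Ω, g • c ≠ c
    · rw [indFun_eq_zero_of_not_conj _ _ _ fun x hx => absurd (conj_smul_iff.1 hx) (g2 _), if_pos g2, if_neg g1]; ring
    rw [if_neg g2, if_neg g1, sub_zero, add_zero]
    push Not at g2
    obtain ⟨c, hc⟩ := g2
    obtain ⟨y, rfl⟩ := exists_smul_eq G a c
    have m : y⁻¹ * g * y ∈ stabilizer G a := by simpa [mul_smul, inv_smul_eq_iff] using hc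
    by_cases g3 : y⁻¹ * g * y ∈ Q
    · rw [← class_conj' (class_indFun _ _) g y, z.ind_apply (class_const 1) g3 (fun e => g1 (by simpa [mul_assoc, inv_mul_eq_one] using e)), one_mul]
    · rw [← class_conj' hf g y, h0 ⟨_, m⟩ g3, mul_zero]
  simp only [k, Finset.sum_add_distrib, Finset.sum_sub_distrib, Finset.sum_ite_eq', Finset.mem_univ, if_true, one_mul,
    ← Finset.sum_filter, z.indexN] at e
  push_cast at e
  linear_combination -e

theorem faith_deg {L : Type*} [Group L] [Fintype L] {K Z : Subgroup L} [K.Normal] [Z.Normal] {q : ℕ} (hq : 1 < q) (cZ : Nat.card Z = q)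
    (cL : Nat.card L = q ^ 3 * (q - 1)) (c1 : ∀ x ∈ K, x ∉ Z → ∀ z ∈ Z, IsConj x (z * x)) (c2 : ∀ x ∈ Z, x ≠ 1 → ∀ y ∈ Z, y ≠ 1 → IsConj x y)
    {φ : L → ℂ} (hφ : φ ∈ SI K Z ⊥) (hi : IsIrrCharacter L φ) : φ 1 = (q * (q - 1) : ℕ) := by
  classical
  haveI := Fintype.ofFinite Z
  have e1 := sum_coset_eq_zero Z hi (not_kr.1 hφ.2.1)
  have q0 : (q : ℂ) ≠ 0 := by exact_mod_cast (by omega : q ≠ 0)
  have e2 : ∀ x, x ∉ Z → φ x = 0 := fun x hx => by
    by_cases h : x ∈ K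
    · have := e1 x
      rw [Finset.sum_congr rfl fun (z : Z) _ => (class_isConj (irr_class hi) (c1 x h hx z z.2)).symm, Finset.sum_const, Finset.card_univ,
        ← Nat.card_eq_fintype_card, cZ, nsmul_eq_mul] at this
      exact (mul_eq_zero.1 this).resolve_left q0
    · exact AI.supp hφ.1 x h
  obtain ⟨s, hs, s1⟩ := not_kr.1 hφ.2.1
  have s2 : s ≠ 1 := fun e => s1 (by rw [e])
  have sm : ∀ {M : Type} [CommRing M] (f : ℂ → M), ∑ z : Z, f (φ z) = f (φ 1) + ((q - 1 : ℕ) : M) * f (φ s) := fun f => by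
    rw [← Finset.add_sum_erase _ _ (Finset.mem_univ 1), Finset.sum_congr rfl fun z hz => by
      rw [class_isConj (irr_class hi) (c2 z z.2 (by simpa using hz) s hs s2)], Finset.sum_const, Finset.card_erase_of_mem (Finset.mem_univ _),
      Finset.card_univ, ← Nat.card_eq_fintype_card, cZ, nsmul_eq_mul]; rfl
  have e3 := e1 1
  simp only [mul_one] at e3
  rw [sm (fun x => x)] at e3
  have e4 := sum_norm_sq_irr hi
  rw [← Finset.sum_subset (Finset.subset_univ (Finset.univ.filter (· ∈ Z))) (fun x _ hx => by rw [e2 x (by simpa using hx)]; simp),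
    Finset.sum_subtype _ (p := (· ∈ Z)) (by simp), sm (fun x => ‖x‖ ^ 2), cL] at e4
  obtain ⟨d, d0, hd⟩ := irr_one_nat hi
  obtain ⟨r, rfl⟩ := Nat.exists_eq_add_of_lt hq
  simp only [show 1 + r + 1 - 1 = r + 1 by omega] at *
  have r0 : ((r + 1 : ℕ) : ℝ) ≠ 0 := by positivity
  have e5 : ((r + 1 : ℕ) : ℝ) * ‖φ s‖ = d := by
    have := congrArg norm (eq_neg_of_add_eq_zero_right e3)
    rwa [norm_neg, norm_mul, hd, Complex.norm_natCast, Complex.norm_natCast] at this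
  rw [hd, Complex.norm_natCast] at e4
  rw [hd]; congr 1
  have e6 : (d : ℝ) ^ 2 = ((1 + r + 1) * (r + 1) : ℕ) ^ 2 := by
    push_cast at e4 e5 ⊢
    have : (0 : ℝ) < 1 + r + 1 := by positivity
    refine mul_left_cancel₀ this.ne' ?_
    rw [← e5] at e4 ⊢
    linear_combination (r + 1 : ℝ) * e4
  exact_mod_cast (sq_eq_sq₀ (by positivity) (by positivity)).1 e6

end SE
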