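/-
SE.Cube2: the exceptional characters in the case `|Q| = q³`.
-/
import Cfsg.Agent.SE.Cube1

set_option autoImplicit false

namespace SE
open Subgroup H9 L H3 Cfsg MulAction
open scoped commutatorElement ComplexConjugate
universe u
variable {G : Type u} [Group G] {Ω : Type*} [MulAction G Ω] {a b : Ω} {Q Z : Subgroup G}

open Classical in
theorem cube_chars [Fintype G] [Finite Ω] [IsSimpleGroup G] (z : ZG a b Q) (ho : Odd (Nat.card (St2 G a b))) (hZ : Z ≤ Q)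
    (nZ : stabilizer G a ≤ normalizer (Z : Set G)) {q : ℕ} (hq : 4 ≤ q) (cZ : Nat.card Z = q) (cQ : Nat.card Q = q ^ 3)
    (cD : Nat.card (St2 G a b) = q - 1) (c1 : ∀ x ∈ Q, x ∉ Z → ∀ w ∈ Z, ∃ y ∈ Q, y * x * y⁻¹ = w * x)
    (c2 : ∀ x ∈ Z, x ≠ 1 → ∀ y ∈ Z, y ≠ 1 → ∃ k ∈ stabilizer G a, k * x * k⁻¹ = y) (c3 : ⁅Q, Q⁆ ≤ Z) (c4 : ∀ x ∈ Q, IsConj x x⁻¹) :
    ∃ T : Finset (G → ℂ), 2 < T.card ∧ ∀ χ ∈ T, IsIrrCharacter G χ ∧ χ 1 = q ^ 2 - 1 ∧ (∀ g, χ g⁻¹ = χ g) ∧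
      ∑ g with ∀ c : Ω, g • c ≠ c, χ g = q ^ 3 * (q ^ 2 - 1) ∧
      ∑ g with ∀ c : Ω, g • c ≠ c, (‖χ g‖ ^ 2 : ℝ) = q ^ 3 * (q ^ 2 - 1) * (q - 2) ∧ ∀ χ' ∈ T, ∀ g, (∀ c : Ω, g • c ≠ c) → χ g = χ' g := by
  haveI := Fintype.ofFinite (stabilizer G a)
  have hp := zass_perfect z
  haveI := z.normal
  have ti := z.tih
  have fr := z.frob
  have ix := z.indexH
  set K := Q.subgroupOf (stabilizer G a) with hK
  set Y := Z.subgroupOf (stabilizer G a) with hY
  haveI : Y.Normal := (normal_subgroupOf_iff_le_normalizer (hZ.trans z.le)).2 nZ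
  have YK : Y ≤ K := fun x hx => hZ hx
  have cY : Nat.card Y = q := (card_subgroupOf (hZ.trans z.le)).trans cZ
  have cL : Nat.card (stabilizer G a) = q ^ 3 * (q - 1) := by rw [z.cardN, cQ, cD]
  have cG : Nat.card G = (q ^ 3 + 1) * (q ^ 3 * (q - 1)) := by rw [z.cardG, cQ, cD]
  rw [cD] at ix
  obtain ⟨r, rfl⟩ : ∃ r, q = r + 1 := ⟨q - 1, by omega⟩
  simp only [add_tsub_cancel_right] at *
  have iY : Y.index = (r + 1) ^ 2 * r := Nat.eq_of_mul_eq_mul_left (Nat.succ_pos r) (by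
    rw [Nat.succ_eq_add_one, ← cY, Y.card_mul_index, cL, cY]; ring)
  have i : ∀ χ ∈ SI K K ⊥, IsIrrCharacter _ χ := fun _ a => irr_of_frobMod fr a.1 a.2.1
  have i1 : ∀ χ ∈ SI K K Y, IsIrrCharacter _ χ := fun χ a => i χ (SI_anti bot_le a)
  have i2 : ∀ χ ∈ SI K Y ⊥, IsIrrCharacter _ χ := fun χ a => i χ (SI_mono YK a)
  have d1 : ∀ χ ∈ SI K K Y, χ 1 = r := fun χ c => ix ▸ SI.degree_der c.1 (c.2.2.mono (by
    rw [hK, ← subgroupOf_commutator z.le z.le]; exact fun x hx => c3 hx))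
  have d2 : ∀ χ ∈ SI K Y ⊥, χ 1 = ((r + 1) * r : ℕ) := fun χ c => faith_deg (by omega) cY cL (fun x hx h1 w hw => by
      obtain ⟨y, hy, e⟩ := c1 x hx h1 w hw
      exact isConj_iff.2 ⟨⟨y, z.le hy⟩, Subtype.ext e⟩) (fun x hx x1 y hy y1 => by
      obtain ⟨k, hk, e⟩ := c2 x hx (by simpa using x1) y hy (by simpa using y1)
      exact isConj_iff.2 ⟨⟨k, hk⟩, Subtype.ext e⟩) c (i2 χ c)
  have r0 : (0 : ℝ) < r := by exact_mod_cast (by omega : 0 < r)
  have n1 : (SIf K K Y).card = r + 2 := by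
    have := sum_SI_sq (K := K) (H := K) le_rfl YK
    rw [Finset.sum_congr rfl fun χ p => by rw [SIrr.nsq (Or.inl (i1 χ (mem_SIf.1 p))), div_one, d1 χ (mem_SIf.1 p), Complex.natCast_re],
      sup_eq_left.2 YK, iY, ix, Finset.sum_const, nsmul_eq_mul] at this
    have e : ((SIf K K Y).card : ℝ) = r + 2 := mul_right_cancel₀ (pow_pos r0 2).ne' (by rw [this]; push_cast; ring)
    exact_mod_cast e
  obtain ⟨Φ, hΦ⟩ : ∃ Φ, SIf K Y ⊥ = {Φ} := Finset.card_eq_one.1 (by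
    have := sum_SI_sq (K := K) (M := ⊥) YK bot_le
    rw [Finset.sum_congr rfl fun χ p => by rw [SIrr.nsq (Or.inl (i2 χ (mem_SIf.1 p))), div_one, d2 χ (mem_SIf.1 p), Complex.natCast_re],
      sup_bot_eq, iY, index_bot, cL, Finset.sum_const, nsmul_eq_mul] at this
    have e : ((SIf K Y ⊥).card : ℝ) = 1 := mul_right_cancel₀ (b := (((r + 1) * r : ℕ) : ℝ) ^ 2) (by push_cast; positivity)
      (by rw [this]; push_cast; ring)
    exact_mod_cast e)
  have mΦ : Φ ∈ SI K Y ⊥ := mem_SIf.1 (hΦ ▸ Finset.mem_singleton_self Φ)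
  have iso : IsoOn (SI K K Y) (indH (stabilizer G a).subtype) := (ti.isTau (subtype_injective _)).isoOn_SI (fun x h1 h2 => ⟨h1, h2⟩) fun _ h => h.1
  have two : ∀ χ, ∃ ξ ∈ SI K K Y, ξ ≠ χ := fun χ => by
    obtain ⟨ξ, h1, h2⟩ := Finset.exists_mem_ne (s := SIf K K Y) (by omega) χ
    exact ⟨ξ, mem_SIf.1 h1, h2⟩
  obtain ⟨χ0, h0, -⟩ := two 0
  obtain ⟨ε, hε, μ, m1, m2, m3⟩ := iso.uniform' i1 h0 fun φ p => by rw [d1 φ p, d1 χ0 h0]
  have m4 : ∀ j l : SI K K Y, indH (stabilizer G a).subtype (j - l) = ε • (μ j - μ l) := fun j l => by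
    rw [show j.1 - l.1 = (j.1 - χ0) - (l.1 - χ0) by abel, map_sub, m3, m3, ← smul_sub]; congr 1; abel
  have ε0 : ε ≠ 0 := by rcases hε with rfl | rfl <;> norm_num
  have εc : conj ε = ε := by rcases hε with rfl | rfl <;> simp
  have sp : ∀ j l : SI K K Y, ∀ x : stabilizer G a, (j.1 - l.1) x ≠ 0 → (x : G) ∈ Q ∧ (x : G) ≠ 1 := fun j l x hx =>
    ⟨by_contra fun e => hx (by rw [Pi.sub_apply, AI.supp j.2.1 x e, AI.supp l.2.1 x e, sub_zero]),
      fun e => hx (by rw [show x = 1 from Subtype.ext e, Pi.sub_apply, d1 _ j.2, d1 _ l.2, sub_self])⟩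
  have ag : ∀ j l : SI K K Y, ∀ g, (∀ x, x * g * x⁻¹ ∉ Q) → μ j g = μ l g := fun j l g hg => by
    have := congrFun (m4 j l) g
    rw [indH_eq_zero _ _ _ fun x w e => by_contra fun h => hg x (e ▸ (sp j l w h).1)] at this
    exact sub_eq_zero.1 ((mul_eq_zero.1 this.symm).resolve_left ε0)
  have m5 : ∀ j l l' : SI K K Y, classInner (fun x : stabilizer G a => μ j x) (l.1 - l'.1) =
      ε * ((if l = j then 1 else 0) - if l' = j then 1 else 0) := fun j l l' => by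
    refine (inner_indH_right (stabilizer G a).subtype _ (irr_class (m1 j))).symm.trans ?_
    rw [m4,
      H3.inner_smul_right, εc, H3.inner_sub_right, irr_inner (m1 j) (m1 l), irr_inner (m1 j) (m1 l')]
    simp only [m2.eq_iff, eq_comm]
  letI := Fintype.ofFinset (SIf K K Y) (p := SI K K Y) fun _ => mem_SIf
  refine ⟨Finset.univ.image μ, by
    rw [Finset.card_image_of_injective _ m2, Finset.card_univ, Fintype.card_of_subtype (SIf K K Y) fun _ => mem_SIf, n1]; omega, fun χ hχ => ?_⟩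
  obtain ⟨j, -, rfl⟩ := Finset.mem_image.1 hχ
  obtain ⟨l0, hl0, l1⟩ := two j
  have l2 : (⟨l0, hl0⟩ : SI K K Y) ≠ j := fun e => l1 (congrArg Subtype.val e)
  set ρ : stabilizer G a → ℂ := fun x => μ j x with hρ
  have cρ : IsCharacter _ ρ := char_restrict (irr_char (m1 j)) _
  have lin : ∀ φ, IsIrrCharacter _ φ → Kr φ K → classInner ρ φ = 0 := fun φ p k => by_contra fun e => by
    obtain ⟨c, hc⟩ : ∃ c, ∀ u ∈ Q, u ≠ 1 → μ j u = c := by
      rcases z.over_one ho hp (m1 j) p k e with e | e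
      · exact ⟨0, fun u hu u1 => by rw [e, Pi.sub_apply, z.ind_apply (char_class (char_hom 1)) hu u1]; simp⟩
      · exact ⟨1, e⟩
    have e1 := m5 j j ⟨l0, hl0⟩
    have n : ∀ l : SI K K Y, classInner l.1 (fun _ => 1) = 0 := fun l => irr_inner_ne (i1 _ l.2) isIrr_one fun e => l.2.2.1 fun _ _ => by rw [e]
    rw [← H3.inner_conj_symm, inner_congr_supp (γ := c • fun _ => 1) fun x hx => by simp [hρ, hc _ (sp _ _ x hx).1 (sp _ _ x hx).2],
      H3.inner_smul_right, H3.inner_sub_left, n, n ⟨l0, hl0⟩, if_pos rfl, if_neg l2] at e1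
    exact ε0 (by simpa using e1.symm)
  have cons : ∀ φ, IsIrrCharacter _ φ → classInner ρ φ ≠ 0 → φ ∈ SI K K Y ∨ φ = Φ := fun φ p e => by
    have : φ ∈ SI K K ⊥ := SI_eq_irr le_rfl i ▸ ⟨p, fun k => e (lin φ p k)⟩
    by_cases k : Kr φ Y
    · exact Or.inl ⟨this.1, this.2.1, k⟩
    · exact Or.inr (Finset.mem_singleton.1 (hΦ ▸ mem_SIf.2 ⟨this.1, k, this.2.2⟩))
  obtain ⟨w, hw⟩ := inner_char_nat cρ (irr_char (i1 _ hl0))
  obtain ⟨w', hw'⟩ := inner_char_nat cρ (irr_char (i1 _ j.2))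
  obtain ⟨v, hv⟩ := inner_char_nat cρ (irr_char (i2 _ mΦ))
  have w1 : (w' : ℂ) = w + ε := by
    have := m5 j j ⟨l0, hl0⟩
    rw [H3.inner_sub_right, hw, hw', if_pos rfl, if_neg l2] at this; linear_combination this
  have w2 : ∀ l ∈ SI K K Y, l ≠ j → classInner ρ l = w := fun l hl e => by
    have := m5 j ⟨l, hl⟩ ⟨l0, hl0⟩
    rw [H3.inner_sub_right, hw, if_neg (fun h => e (congrArg Subtype.val h)), if_neg l2] at this; linear_combination this
  have sm : ∀ f : (stabilizer G a → ℂ) → ℂ, ∑ φ : IrrCharacter (stabilizer G a), classInner ρ φ * f φ =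
      ∑ φ ∈ SIf K K Y, classInner ρ φ * f φ + v * f Φ := fun f => by
    rw [sum_irr_split YK i2 fun φ => classInner ρ φ * f φ, hΦ, Finset.sum_singleton, hv, add_left_inj]
    symm
    refine Finset.sum_bij_ne_zero (fun φ p _ => ⟨φ, i1 φ (mem_SIf.1 p)⟩) (fun φ p _ => Finset.mem_filter.2 ⟨by simp, (mem_SIf.1 p).2.2⟩)
      (fun _ _ _ _ _ _ e => congrArg Subtype.val e) (fun φ p e => ?_) fun _ _ _ => rfl
    rcases cons φ φ.2 (left_ne_zero_of_mul e) with h | h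
    · exact ⟨φ, mem_SIf.2 h, e, rfl⟩
    · exact absurd (h ▸ (Finset.mem_filter.1 p).2) mΦ.2.1
  have s1 : ∀ f : ℂ → ℂ, ∑ φ ∈ SIf K K Y, f (classInner ρ φ) = f w' + (r + 1) * f w := fun f => by
    rw [← Finset.add_sum_erase _ _ (mem_SIf.2 j.2), hw', Finset.sum_congr rfl fun φ p => by
      rw [w2 φ (mem_SIf.1 (Finset.mem_erase.1 p).2) (Finset.mem_erase.1 p).1], Finset.sum_const, Finset.card_erase_of_mem (mem_SIf.2 j.2),
      n1, nsmul_eq_mul]; simp
  have e1 : μ j 1 = r * ((r + 1) * w + w' + (r + 1) * v) := by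
    have := class_apply_eq_sum (char_class cρ) 1
    rw [sm fun φ => φ 1, Finset.sum_congr rfl fun φ p => by rw [d1 φ (mem_SIf.1 p)], s1 (· * r), d2 Φ mΦ] at this
    rw [show μ j 1 = ρ 1 from rfl, this]; push_cast; ring
  have e2 : classInner ρ ρ = (r + 1) * w ^ 2 + w' ^ 2 + v ^ 2 := by
    rw [parseval (char_class cρ), sm fun φ => conj (classInner ρ φ), s1 fun x => x * conj x, hv]; simp; ring
  have e3 : ∀ x : stabilizer G a, (x : G) ∉ Q → μ j x = 0 := fun x hx => by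
    rw [show μ j x = ρ x from rfl, class_apply_eq_sum (char_class cρ) x, sm fun φ => φ x, AI.supp mΦ.1 x hx,
      Finset.sum_eq_zero fun φ p => by rw [AI.supp (mem_SIf.1 p).1 x hx, mul_zero]]; simp
  have e4 := sum_fpf z (irr_class (m1 j)) e3
  have e5 := sum_fpf z (class_mul (irr_class (m1 j)) (class_conj (irr_class (m1 j)))) fun x hx => by simp [e3 x hx]
  have f1 : ∀ {Γ : Type u} [Group Γ] [Fintype Γ] (f g : Γ → ℂ), ∑ x, f x * conj (g x) = Nat.card Γ * classInner f g := fun f g => by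
    rw [classInner, mul_inv_cancel_left₀ (card_ne_zero' _)]
  have j1 : μ j ≠ fun _ => 1 := fun e => by
    have := lin _ isIrr_one fun _ _ => rfl
    rw [hρ, e, irr_inner_self isIrr_one] at this; exact one_ne_zero this
  have g1 := f1 (μ j) fun _ => 1
  have g2 := f1 ρ fun _ => 1
  simp only [map_one, mul_one, irr_inner_ne (m1 j) isIrr_one j1, lin _ isIrr_one fun _ _ => rfl, mul_zero] at g1 g2
  simp only [Pi.mul_apply] at e5
  rw [f1, f1 ρ ρ, e2, irr_inner_self (m1 j), e1, cG, cL, cQ] at e5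
  have e6 : ∑ g with ∀ c : Ω, g • c ≠ c, (‖μ j g‖ ^ 2 : ℝ) = ((r + 1) ^ 3 + 1) * ((r + 1) ^ 3 * r) * (1 - ((r + 1) * w ^ 2 + w' ^ 2 + v ^ 2)) +
      (r + 1) ^ 3 * (r * ((r + 1) * w + w' + (r + 1) * v)) ^ 2 := by
    apply Complex.ofReal_injective
    simp only [Complex.mul_conj, Complex.normSq_eq_norm_sq] at e5
    rw [Complex.ofReal_sum, e5]
    rw [show (r * ((r + 1) * w + w' + (r + 1) * v) : ℂ) = ((r * ((r + 1) * w + w' + (r + 1) * v) : ℕ) : ℂ) by push_cast; ring, Complex.norm_natCast]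
    push_cast; ring
  obtain ⟨η, hη, rfl⟩ : ∃ η : ℤ, (η = 1 ∨ η = -1) ∧ (η : ℂ) = ε := by
    rcases hε with rfl | rfl
    exacts [⟨1, Or.inl rfl, by simp⟩, ⟨-1, Or.inr rfl, by simp⟩]
  have w3 : (w' : ℤ) = w + η := by exact_mod_cast w1
  obtain ⟨a1, a2, a3⟩ := cube_arith (q := r + 1) (w := w) (v := v) (by omega) (by omega) (by omega) hη (by omega) (by
    have := e6 ▸ Finset.sum_nonneg (s := Finset.univ.filter fun g : G => ∀ c : Ω, g • c ≠ c) fun g _ => sq_nonneg ‖μ j g‖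
    rw [← w3]
    refine Int.cast_le (R := ℝ).1 (le_of_mul_le_mul_left (a := ((r : ℝ) + 1) ^ 3 * r) ?_ (by positivity))
    push_cast; linarith)
  obtain rfl : w = 0 := by omega
  obtain rfl : w' = 1 := by omega
  obtain rfl : v = 1 := by
    by_contra v1
    obtain rfl : v = 0 := by omega
    obtain ⟨s, hs, s1⟩ := not_kr.1 mΦ.2.1
    have := ker_of_forall_constituent (char_class cρ) (g := s) fun φ p e => by
      rcases cons φ p e with h | rfl
      exacts [h.2.2 s hs, absurd (hv.trans Nat.cast_zero) e]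
    rcases (charKer_normal (irr_class (m1 j))).eq_bot_or_eq_top with e | e
    · exact s1 (by rw [show s = 1 from Subtype.ext (mem_bot.1 (e ▸ (mem_charKer (irr_char (m1 j)) _).2 this))])
    · exact charKer_ne_top (m1 j) j1 e
  refine ⟨m1 j, by rw [e1]; push_cast; ring, fun g => ?_, by rw [e4, g1, g2, e1, cQ]; push_cast; ring, by rw [e6]; push_cast; ring,
    fun χ' h' g hg => ?_⟩
  · have k : (fun g => conj (μ j g)) - (fun g => conj (μ ⟨l0, hl0⟩ g)) = μ j - μ ⟨l0, hl0⟩ := funext fun g => by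
      simp only [Pi.sub_apply, ← char_inv (irr_char (m1 _))]
      by_cases e : ∀ x, x * g * x⁻¹ ∉ Q
      · rw [ag j ⟨l0, hl0⟩ g e, ag j ⟨l0, hl0⟩ g⁻¹ fun x h => e x (by simpa [mul_assoc] using Q.inv_mem h), sub_self, sub_self]
      push Not at e
      obtain ⟨x, hx⟩ := e
      have : IsConj g g⁻¹ := ((isConj_iff.2 ⟨x, rfl⟩).trans (c4 _ hx)).trans (isConj_iff.2 ⟨x⁻¹, by group⟩)
      rw [← class_isConj (irr_class (m1 _)) this, ← class_isConj (irr_class (m1 _)) this]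
    have := congrArg (classInner · (μ j)) k
    simp only [H3.inner_sub_left, irr_inner_self (m1 j), irr_inner_ne (m1 _) (m1 j) (m2.ne l2), irr_inner (irr_conj (m1 _)) (m1 j)] at this
    rw [char_inv (irr_char (m1 j))]
    refine congrFun (show (fun g => conj (μ j g)) = μ j from by_contra fun e => ?_) g
    rw [if_neg e] at this
    split_ifs at this <;> norm_num at this
  · obtain ⟨l, -, rfl⟩ := Finset.mem_image.1 h'
    exact ag j l g fun x hx => hg _ (conj_smul_iff.1 (z.le hx))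

end SE
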