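/-
SE.Cube3: there is no simple Zassenhaus group whose root group is a Suzuki 2-group of order `q³`.
-/
import Cfsg.Agent.SE.Cube2

set_option autoImplicit false

namespace SE
open Subgroup H9 L H3 Cfsg MulAction
open scoped commutatorElement ComplexConjugate
universe u
variable {G : Type u} [Group G] {Ω : Type*} [MulAction G Ω] {a b : Ω} {Q Z : Subgroup G} {t : G}

theorem card_le_eight [Finite G] {E : Subgroup G} {s : G} (s2 : s * s = 1) (s1 : s ≠ 1) (h1 : ∀ x ∈ E, x * x = 1 → x = 1 ∨ x = s)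
    (h2 : ∀ x ∈ E, x * x * (x * x) = 1) (h3 : ∀ x ∈ E, ∀ y ∈ E, ⁅x, y⁆ * ⁅x, y⁆ = 1) (hs : ∀ x ∈ E, x * s = s * x) : Nat.card E ≤ 8 := by
  classical
  by_cases h : ∀ x ∈ E, x * x = 1
  · exact (Nat.card_le_card_of_injective (fun x : E => (⟨x, by simpa using h1 x x.2 (h x x.2)⟩ : ({1, s} : Finset G)))
      fun x y e => Subtype.ext (Subtype.mk.inj e)).trans (by rw [Nat.card_eq_fintype_card, Fintype.card_coe]; exact Finset.card_le_two.trans (by norm_num))
  push Not at h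
  obtain ⟨x, hx, x2⟩ := h
  have sq : ∀ y ∈ E, y * y ≠ 1 → y * y = s := fun y hy e => (h1 _ (E.mul_mem hy hy) (h2 y hy)).resolve_left e
  have c : ∀ y ∈ E, x * y = y * x → y ∈ ({1, s, x⁻¹, x⁻¹ * s} : Finset G) := fun y hy e => by
    by_cases k : y * y = 1
    · rcases h1 y hy k with rfl | rfl <;> simp
    rcases h1 (x * y) (E.mul_mem hx hy) (by rw [mul_assoc, ← mul_assoc y, ← e, mul_assoc, ← mul_assoc, sq x hx x2, sq y hy k, s2]) with f | f
    · simp [eq_inv_of_mul_eq_one_right f]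
    · simp [eq_inv_mul_of_mul_eq f]
  have e := card_class_mul_card_centralizer (⟨x, hx⟩ : E)
  have e1 : Nat.card {y : E // IsConj ⟨x, hx⟩ y} ≤ 2 := (Nat.card_le_card_of_injective (fun y => (⟨y.1, by
      obtain ⟨g, e⟩ := isConj_iff.1 y.2
      have e1 : (y.1 : G) = ⁅(g : G), x⁆ * x := by rw [← e, commutatorElement_def]; simp
      rcases h1 _ (E.mul_mem (E.mul_mem (E.mul_mem g.2 hx) (E.inv_mem g.2)) (E.inv_mem hx)) (h3 g g.2 x hx) with f | f <;>
        simp [e1, commutatorElement_def, f]⟩ : ({x, s * x} : Finset G))) fun y y' e => Subtype.ext (Subtype.ext (Subtype.mk.inj e))).trans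
    (by rw [Nat.card_eq_fintype_card, Fintype.card_coe]; exact Finset.card_le_two)
  have e2 : Nat.card (centralizer {(⟨x, hx⟩ : E)}) ≤ 4 := (Nat.card_le_card_of_injective (fun y => (⟨y.1, c _ y.1.2
      (congrArg Subtype.val (mem_centralizer_singleton_iff.1 y.2)).symm⟩ : ({1, s, x⁻¹, x⁻¹ * s} : Finset G)))
    fun y y' e => Subtype.ext (Subtype.ext (Subtype.mk.inj e))).trans (by rw [Nat.card_eq_fintype_card, Fintype.card_coe]; exact Finset.card_le_four)
  rw [← e]; exact Nat.mul_le_mul e1 e2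

theorem eq_one_of_two_odd [Finite G] {A : Subgroup G} (hQ : IsPGroup 2 Q) (ho : Odd (Nat.card A)) {v : G} (h1 : v ∈ Q) (h2 : v ∈ A) : v = 1 :=
  mem_bot.1 (inf_eq_bot_of_p_p' hQ (Nat.coprime_two_right.2 ho) ▸ mem_inf.2 ⟨h1, h2⟩)

theorem comm_of_fix {s v : G} (h : s * s = 1) (e : s * v * s = v) : v * s = s * v := by
  nth_rewrite 1 [← e]; rw [mul_assoc, h, mul_one]

theorem exists_inv_of_real {x g : G} (ho : Odd (Nat.card (centralizer {x}))) (e : g * x * g⁻¹ = x⁻¹) : ∃ u, u * u = 1 ∧ u * x * u = x⁻¹ := by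
  have e2 : g * x⁻¹ * g⁻¹ = x := by rw [← conj_inv, e, inv_inv]
  have c : Commute (g * g) x := by rw [Commute, SemiconjBy, show g * g * x = g * (g * x * g⁻¹) * g⁻¹ * (g * g) by group, e, e2]
  obtain ⟨m, hm⟩ := odd_orderOf ho (mem_centralizer_singleton_iff.2 c)
  have u2 : (g * g) ^ m * g * ((g * g) ^ m * g) = 1 := by
    rw [← pow_orderOf_eq_one (g * g), hm, ← pow_two, ← pow_two, ← pow_mul, ← pow_succ, ← pow_mul, ← pow_mul]; congr 1; ring
  refine ⟨_, u2, ?_⟩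
  nth_rewrite 2 [← inv_eq_self u2]
  rw [show (g * g) ^ m * g * x * ((g * g) ^ m * g)⁻¹ = (g * g) ^ m * (g * x * g⁻¹) * ((g * g) ^ m)⁻¹ by group, e, (c.pow_left m).inv_right,
    mul_inv_cancel_right]

theorem odd_fpf [Finite G] (h : R1 (stabilizer G a) Q t) {x : G} (hx : ∀ c : Ω, x • c ≠ c) : Odd (Nat.card (centralizer {x})) :=
  odd_of_no_inv fun u hu u1 => by
    obtain ⟨s, hs, s1⟩ := exists_inv_of_even h.even
    obtain ⟨g, rfl⟩ := h.emb.conj_inv s1 u1
    have := h.emb.cent (h.le hs) s1 (g := g⁻¹ * x * g) (by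
      rw [show g⁻¹ * x * g * s = g⁻¹ * (x * (g * s * g⁻¹)) * g by group, ← mem_centralizer_singleton_iff.1 hu]; group)
    exact hx (g • a) (by simpa [mul_smul, inv_smul_eq_iff] using this)

theorem inv_all [Finite G] (z : ZG a b Q) (hQ : IsPGroup 2 Q) {s y : G} (hs : s ∈ Q) (s1 : Inv s) (ho : Odd (Nat.card (centralizer {y})))
    (e : s * y * s = y⁻¹) {c : G} (hc : c ∈ centralizer {y}) : s * c * s = c⁻¹ := by
  obtain ⟨v, hv, k, -, e1, e2, rfl⟩ := exists_dec ho s1.2 (fun x hx => mem_centralizer_singleton_iff.2 (by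
    have := (centralizer_zpowers y ▸ hx : x ∈ centralizer (zpowers y : Set G)) y⁻¹ (inv_mem (mem_zpowers y))
    rw [← inv_inv y, ← e]
    simp only [mul_inv_rev, s1.inv, mul_assoc, s1.cancel]
    rw [← mul_assoc x, ← this, mul_assoc])) hc
  rw [eq_one_of_two_odd hQ ho (z.cent hs s1.1 (comm_of_fix s1.2 e1)) hv, one_mul, e2]

theorem fpf_of_comm [Finite G] (z : ZG a b Q) {x y : G} (hx : ∀ c : Ω, x • c ≠ c) (ho : Odd (orderOf x)) (e : x * y = y * x) (y1 : y ≠ 1)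
    (c : Ω) : y • c ≠ c := fun h => by
  have k : ∀ d : Ω, y • d = d → y • x • d = x • d := fun d hd => by rw [← mul_smul, ← e, mul_smul, hd]
  refine y1 (z.three y c (x • c) (x • x • c) (hx c).symm (hx _).symm (fun f => hx c ?_) h (k _ h) (k _ (k _ h)))
  obtain ⟨n, hn⟩ := exists_sqrt ho
  have : x * x ∈ stabilizer G c := by rw [mem_stabilizer_iff, mul_smul, ← f]
  have := pow_mem this n
  rwa [(Commute.refl x).mul_pow, hn] at this

open Classical in
theorem real_zero [Fintype G] [Finite Ω] (z : ZG a b Q) (h : R2 (stabilizer G a) Q t) (hQ : IsPGroup 2 Q) {n : ℕ} (hn : 2 ≤ n)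
    (cQ : Nat.card Q = (2 ^ n) ^ 3) (cD : Nat.card (St2 G a b) = 2 ^ n - 1) (c5 : ∀ x ∈ Q, x * x * (x * x) = 1)
    (c6 : ∀ x ∈ Q, ∀ y ∈ Q, ⁅x, y⁆ * ⁅x, y⁆ = 1) {T : Finset (G → ℂ)} (hT : 2 < T.card) (hi : ∀ χ ∈ T, IsIrrCharacter G χ)
    (hd : ∀ χ ∈ T, χ 1 = (2 ^ n) ^ 2 - 1) (ag : ∀ χ ∈ T, ∀ χ' ∈ T, ∀ g, (∀ c : Ω, g • c ≠ c) → χ g = χ' g) {χ : G → ℂ} (hχ : χ ∈ T)
    (hs2 : ∑ g with ∀ c : Ω, g • c ≠ c, (‖χ g‖ ^ 2 : ℝ) = (2 ^ n) ^ 3 * ((2 ^ n) ^ 2 - 1) * (2 ^ n - 2))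
    {s x : G} (hs : s ∈ Q) (s1 : Inv s) (hx : ∀ c : Ω, x • c ≠ c) (e : s * x * s = x⁻¹) : χ x = 0 := by
  have ho := odd_fpf h.toR1 hx
  set A := centralizer {x} with hA
  have xA : x ∈ A := mem_centralizer_singleton_iff.2 rfl
  have x1 : x ≠ 1 := fun e => hx a (by rw [e, one_smul])
  have iv : ∀ c ∈ A, s * c * s = c⁻¹ := fun c hc => inv_all z hQ hs s1 ho e hc
  have cm : ∀ {B : Subgroup G}, (∀ c ∈ B, s * c * s = c⁻¹) → ∀ c ∈ B, ∀ d ∈ B, c * d = d * c := fun iv c hc d hd => inv_injective (by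
    rw [← iv _ (mul_mem hc hd), mul_inv_rev, ← iv c hc, ← iv d hd]; simp [mul_assoc, s1.cancel])
  have fp : ∀ y ∈ A, y ≠ 1 → ∀ c : Ω, y • c ≠ c := fun y hy y1 =>
    fpf_of_comm z hx (odd_orderOf ho xA) (mem_centralizer_singleton_iff.1 hy).symm y1
  have cy : ∀ y ∈ A, y ≠ 1 → centralizer {y} = A := fun y hy y1 => le_antisymm (fun c hc => mem_centralizer_singleton_iff.2
    (cm (fun c hc => inv_all z hQ hs s1 (odd_fpf h.toR1 (fp y hy y1)) (iv y hy) hc) c hc x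
      (mem_centralizer_singleton_iff.2 (cm iv x xA y hy)))) fun c hc => mem_centralizer_singleton_iff.2 (cm iv c hc y hy)
  set N := normalizer (A : Set G) with hN
  haveI := Fintype.ofFinite N
  set B := A.subgroupOf N with hB
  haveI : B.Normal := normal_in_normalizer
  have cB : Nat.card B = Nat.card A := card_subgroupOf le_normalizer
  have ti : TIH N.subtype B := fun g y hy y1 y' hy' e => ⟨⟨g, mem_normalizer_iff_cj.2 (by
    have y1 : (y : G) ≠ 1 := by simpa using y1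
    have e : g * y * g⁻¹ = y' := e
    rw [← cy y hy y1, cj_centralizer_singleton, e, cy y' hy' (by rw [← e]; simpa using y1), cy y hy y1])⟩, rfl⟩
  have hC : ∀ k ∈ B, k ≠ 1 → centralizer {k} ≤ B := fun k hk k1 g hg =>
    (cy k hk (by simpa using k1)).le (mem_centralizer_singleton_iff.2 (congrArg Subtype.val (mem_centralizer_singleton_iff.1 hg)))
  have fr : FrobMod B ⊥ := frobMod_bot_iff.2 hC
  have cs : ∀ {u}, u ∈ N ⊓ centralizer {s} → u ∈ Q := fun hu => z.cent hs s1.1 (mem_centralizer_singleton_iff.1 hu.2)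
  have e8 : B.index ≤ 8 := by
    refine le_trans ?_ (card_le_eight (E := N ⊓ centralizer {s}) s1.2 s1.1 (fun u hu u2 => ?_) (fun u hu => c5 u (cs hu))
      (fun u hu v hv => c6 u (cs hu) v (cs hv)) fun u hu => mem_centralizer_singleton_iff.1 hu.2)
    · refine Nat.card_le_card_of_surjective (fun u : (N ⊓ centralizer {s} : Subgroup G) => ((⟨u, u.2.1⟩ : N) : N ⧸ B)) fun g => ?_
      obtain ⟨g, rfl⟩ := QuotientGroup.mk_surjective g
      have m : s * (g * s * (g : G)⁻¹) ∈ A := mem_centralizer_singleton_iff.2 (by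
        have e1 := iv _ (conj_mem_of_le_normalizer' le_rfl g.2 xA)
        have e2 : g * s * (g : G)⁻¹ * x = x⁻¹ * (g * s * (g : G)⁻¹) := by
          rw [show (g : G) * s * (g : G)⁻¹ * x = g * (s * ((g : G)⁻¹ * x * g) * s) * s⁻¹ * (g : G)⁻¹ by group, e1, s1.inv]; group
        rw [mul_assoc, e2, ← mul_assoc, ← e]; simp [mul_assoc, s1.cancel])
      obtain ⟨m', hm⟩ := exists_sqrt (odd_orderOf ho m)
      have m2 := pow_mem m m'
      generalize (s * (g * s * (g : G)⁻¹)) ^ m' = w at hm m2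
      refine ⟨⟨w * g, N.mul_mem (le_normalizer m2) g.2, mem_centralizer_singleton_iff.2 ?_⟩, ?_⟩
      · rw [show w * g * s = w * s * (s⁻¹ * (g * s * (g : G)⁻¹)) * g by group, s1.inv, ← hm, show w * s = s * (s * w * s) by simp [mul_assoc, s1.cancel],
          iv w m2]; group
      · rw [QuotientGroup.eq]
        change (w * g)⁻¹ * g ∈ A
        simpa [mul_assoc] using conj_mem_of_le_normalizer' le_rfl g.2 (A.inv_mem m2)
    · by_cases u1 : u = 1
      · exact Or.inl u1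
      have uQ := cs hu
      obtain ⟨v, hv, k, hk, f1, f2, f3⟩ := exists_dec ho u2 (fun c hc => by simpa [inv_eq_self u2] using conj_mem_of_le_normalizer le_rfl hu.1 hc) xA
      have v1 : v = 1 := eq_one_of_two_odd hQ ho (z.cent uQ u1 (comm_of_fix u2 f1)) hv
      rw [v1, one_mul] at f3
      have m : s * u ∈ A := mem_centralizer_singleton_iff.2 (by
        rw [mul_assoc, show u * x = x⁻¹ * u by rw [f3, ← f2]; simp [mul_assoc, u2], ← mul_assoc, ← e]; simp [mul_assoc, s1.cancel])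
      have := eq_one_of_two_odd hQ ho (Q.mul_mem hs uQ) m
      exact Or.inr (by rw [eq_inv_of_mul_eq_one_right this, s1.inv])
  have a1 : 1 < Nat.card A := (one_lt_card_iff_ne_bot A).2 fun e => x1 (mem_bot.1 (e ▸ xA))
  have e9 : B.index + 1 ≤ Nat.card A := by
    have := Nat.le_of_dvd (by omega) (cB ▸ index_dvd_card_sub_one B hC); omega
  have e10 : (Nat.card A : ℤ) ∣ (2 ^ n) ^ 3 + 1 := by
    haveI := Fintype.ofFinite Ω
    have := index_dvd_sum (G := A) (fun g (c : Ω) => (g : G) • c) (fun c => one_smul _ c) (fun g g' c => mul_smul _ _ c) ⊥ (fun _ => 1) Finset.univ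
      (fun _ _ _ => Finset.mem_univ _) (fun g c _ e => by_contra fun g1 => fp g g.2 (by simpa using g1) c e) fun _ _ _ => rfl
    rw [index_bot, Finset.sum_const, Finset.card_univ, ← Nat.card_eq_fintype_card, ← z.card, cQ] at this
    simpa using this
  have i : ∀ φ ∈ SI B B ⊥, IsIrrCharacter _ φ := fun _ a => irr_of_frobMod fr a.1 a.2.1
  have d : ∀ φ ∈ SI B B ⊥, φ 1 = B.index := fun φ c => SI.degree_der c.1 (by
    rw [commutator_eq_bot_iff_le_centralizer.2 fun u hu v hv => Subtype.ext (cm iv _ hv _ hu)]; exact kr_bot φ)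
  have x' : (⟨x, le_normalizer xA⟩ : N) ∈ B := xA
  obtain ⟨φ0, h0⟩ := SI_nonempty (K := B) (M := ⊥) le_rfl bot_le fun e => x1 (congrArg Subtype.val (mem_bot.1 (e x')))
  have cl := irr_class (hi χ hχ)
  obtain ⟨m, hm⟩ := inner_char_nat (char_restrict (irr_char (hi χ hχ)) N) (irr_char (i _ h0))
  have tau := ti.isTau (subtype_injective _)
  have o : ∀ φ ∈ SI B B ⊥, classInner (fun y : N => χ y) φ = m / B.index * φ 1 := fun φ p => by
    rw [d φ p, div_mul_cancel₀ _ (by exact_mod_cast index_ne_zero_of_finite), ← hm, ← sub_eq_zero, ← H3.inner_sub_right]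
    have sp : Supp (φ - φ0) {y | y ∈ B ∧ y ≠ 1} := fun y hy => by
      by_cases k : y ∈ B
      · rw [show y = 1 by simpa [k] using hy, Pi.sub_apply, d φ p, d φ0 h0, sub_self]
      · rw [Pi.sub_apply, AI.supp p.1 y k, AI.supp h0.1 y k, sub_zero]
    have gn := gen_sub (irr_gen (i φ p)) (irr_gen (i φ0 h0))
    obtain ⟨k, hk⟩ := inner_gen_int gn (irr_gen (hi χ hχ) |> fun h => gen_restrict h N)
    have b := bessel T id (fun ξ p => irr_ne_zero (hi ξ p)) (fun ξ p ξ' q e => irr_inner_ne (hi ξ p) (hi ξ' q) e) (indH N.subtype (φ - φ0))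
    rw [tau.nsq (gen_class gn) sp, Finset.sum_congr rfl (g := fun _ => (k : ℝ) ^ 2) fun ξ p => by
      rw [id, SIrr.nsq (Or.inl (hi ξ p)), div_one, inner_indH_left _ _ (irr_class (hi ξ p)),
        inner_congr_supp (β := fun y => ξ (N.subtype y)) (γ := fun y : N => χ y) fun y hy => ag ξ p χ hχ _ (by
          have := not_not.1 (mt (sp y) hy); exact fp y this.1 (by simpa using this.2)), hk, Complex.norm_intCast, sq_abs],
      Finset.sum_const, nsmul_eq_mul, nsq_sub, SIrr.nsq (Or.inl (i φ p)), SIrr.nsq (Or.inl (i φ0 h0)), irr_inner (i φ p) (i φ0 h0)] at b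
    have b2 : (T.card : ℝ) * k ^ 2 ≤ 2 := b.trans (by split_ifs <;> norm_num)
    have b3 : (T.card : ℤ) * k ^ 2 ≤ 2 := by exact_mod_cast b2
    have : k = 0 := by by_contra k0; nlinarith [sq_pos_of_ne_zero k0]
    rw [← H3.inner_conj_symm, hk, this]; simp
  have cN : Nat.card N = B.index * Nat.card A := by rw [← cB, B.index_mul_card]
  have val : ∀ y ∈ A, y ≠ 1 → χ y = (((2 ^ n) ^ 2 - 1 - m * Nat.card A : ℤ) : ℂ) := fun y hy y1 => by
    have := sub_eq_of_orth le_rfl i (class_restrict cl N) o (x := ⟨y, le_normalizer hy⟩) hy (by simpa using y1)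
    have i0 : (B.index : ℂ) ≠ 0 := by exact_mod_cast index_ne_zero_of_finite
    rw [cN, show χ (1 : N) = χ 1 from rfl, hd χ hχ] at this
    push_cast at this ⊢; field_simp at this; linear_combination -this
  generalize hα : ((2 ^ n) ^ 2 - 1 - m * Nat.card A : ℤ) = α at val
  rw [val x xA x1]
  by_contra α0
  have α0 : α ≠ 0 := by simpa using α0
  let θ : N → ℂ := fun y => if y ∈ B ∧ y ≠ 1 then 1 else 0
  have cθ : IsClassFunction _ θ := fun y g => if_congr (and_congr ((inferInstance : B.Normal).mem_comm_iff.trans (by simp)) (by simp)) rfl rfl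
  have s3 := sum_indFun_mul N θ (class_mul cl (class_conj cl))
  have s4 : ∑ y : N, θ y * (χ * fun g => conj (χ g)) y = ((Nat.card A - 1 : ℕ) * α ^ 2 : ℝ) := by
    rw [Finset.sum_congr rfl (g := fun y => if y ∈ B ∧ y ≠ 1 then (α : ℂ) ^ 2 else 0) fun y _ => by
      by_cases k : y ∈ B ∧ y ≠ 1
      · simp [θ, k, val y k.1 (by simpa using k.2), sq]
      · simp only [θ, if_neg k, zero_mul], ← Finset.sum_filter, Finset.sum_const, nsmul_eq_mul, ← cB, Nat.card_eq_fintype_card, Fintype.card_subtype,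
      ← Finset.card_erase_of_mem (a := 1) (by simp)]
    push_cast; congr 3; ext; simp [and_comm]
  have s5 : (N.index * ((Nat.card A - 1 : ℕ) * α ^ 2) : ℝ) ≤ (2 ^ n) ^ 3 * ((2 ^ n) ^ 2 - 1) * (2 ^ n - 2) := by
    rw [← hs2, Finset.sum_filter, ← Complex.ofReal_re (_ * _), Complex.ofReal_mul, ← s4, Complex.ofReal_natCast, ← s3, Complex.re_sum]
    refine Finset.sum_le_sum fun g _ => ?_
    by_cases k : ∃ u, u * g * u⁻¹ ∈ A ∧ u * g * u⁻¹ ≠ 1
    · obtain ⟨u, u1, u2⟩ := k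
      rw [if_pos fun c e => fp _ u1 u2 (u • c) (by simp [mul_smul, e]), ← class_indFun N θ g u, ← indH_subtype,
        show u * g * u⁻¹ = N.subtype ⟨_, le_normalizer u1⟩ from rfl, ti.apply (subtype_injective _) cθ (fun y hy => if_neg fun e => hy e.1) u1
          (by simpa using u2)]
      simp only [θ]; rw [if_pos ⟨u1, by simpa using u2⟩, one_mul, Pi.mul_apply, Complex.mul_conj, Complex.normSq_eq_norm_sq, Complex.ofReal_re]
    · rw [indFun_eq_zero_of_not_conj _ _ _ fun u hu => if_neg fun e => k ⟨u, e.1, by simpa using e.2⟩, zero_mul, Complex.zero_re]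
      split_ifs <;> positivity
  have cG := z.cardG
  rw [← N.index_mul_card, cN, cQ, cD] at cG
  have q4 : 4 ≤ 2 ^ n := (Nat.pow_le_pow_right two_pos hn : 2 ^ 2 ≤ _)
  have q8 : 2 ^ n = 4 ∨ 8 ≤ 2 ^ n := by
    rcases hn.eq_or_lt with rfl | l
    exacts [Or.inl rfl, Or.inr (Nat.pow_le_pow_right two_pos l : 2 ^ 3 ≤ _)]
  have s6 : (N.index * ((Nat.card A - 1 : ℕ) * α ^ 2) : ℤ) ≤ (2 ^ n : ℕ) ^ 3 * ((2 ^ n : ℕ) ^ 2 - 1) * ((2 ^ n : ℕ) - 2) := by exact_mod_cast s5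
  have hα' : (((2 ^ n : ℕ) : ℤ) ^ 2 - 1 - m * Nat.card A : ℤ) = α := by exact_mod_cast hα
  have e11 : (Nat.card A : ℤ) ∣ (2 ^ n : ℕ) ^ 3 + 1 := by exact_mod_cast e10
  generalize 2 ^ n = q at *
  generalize Nat.card A = c at *
  generalize B.index = j at *
  generalize N.index = l at *
  obtain ⟨r, rfl⟩ : ∃ r, q = r + 1 := ⟨q - 1, by omega⟩
  obtain ⟨c, rfl⟩ : ∃ r, c = r + 1 := ⟨c - 1, by omega⟩
  simp only [add_tsub_cancel_right] at *
  have cG' : (l * (j * (c + 1)) : ℤ) = ((r + 1) ^ 3 + 1) * ((r + 1) ^ 3 * r) := by exact_mod_cast cG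
  push_cast at s6 hα' e11
  have α1 : 1 ≤ α ^ 2 := sq_pos_of_ne_zero α0
  have r0 : (0 : ℤ) < r := by omega
  have k1 : (r ^ 2 + r + 1 : ℤ) * (c * α ^ 2) ≤ j * (c + 1) * (r - 1) := by
    refine le_of_mul_le_mul_left (a := ((r : ℤ) + 1) ^ 3 * r * (r + 2)) ?_ (by positivity)
    calc _ = j * (c + 1) * (l * (c * α ^ 2)) := by linear_combination (-(c * α ^ 2) : ℤ) * cG'
      _ ≤ j * (c + 1) * ((r + 1) ^ 3 * ((r + 1) ^ 2 - 1) * (r + 1 - 2)) := mul_le_mul_of_nonneg_left s6 (by positivity)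
      _ = _ := by ring
  have k2 : (r ^ 2 + r + 1 : ℤ) * α ^ 2 ≤ 9 * (r - 1) := by
    refine le_of_mul_le_mul_left (a := (c : ℤ)) ?_ (by omega)
    have : (j : ℤ) * (c + 1) ≤ 9 * c := by nlinarith
    nlinarith
  rcases q8 with f | f
  · obtain rfl : r = 3 := by omega
    have : (c + 1 : ℤ) ∣ 15 - α := ⟨m, by rw [← hα']; push_cast; ring⟩
    have : α = 1 ∨ α = -1 := by norm_num at k2; rcases (show α ≤ -2 ∨ α = -1 ∨ α = 0 ∨ α = 1 ∨ 2 ≤ α by omega) with h | h | h | h | h <;> first | omega | nlinarith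
    have e12 : (c + 1 : ℤ) ∣ 65 := by simpa using e11
    have : (c + 1 : ℤ) ∣ 1 := by
      rcases this with rfl | rfl
      · exact (Int.dvd_coe_gcd e12 ‹_›)
      · exact (Int.dvd_coe_gcd e12 ‹_›)
    have := Int.le_of_dvd one_pos this
    omega
  · have : (7 : ℤ) ≤ r := by omega
    nlinarith

open Classical in
theorem no_cube [Finite G] [Finite Ω] [IsSimpleGroup G] {F : Type*} [Field F] [Finite F] [CharP F 2] {K : Subgroup G} {π ψ : G → F}
    (z : ZG a b Q) (h : R2 (stabilizer G a) Q t) (sg : SG Q Z K π ψ) (hK : K ≤ stabilizer G a) (nZ : stabilizer G a ≤ normalizer (Z : Set G))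
    (hΦ : Phi Q ≤ Z) (cD : Nat.card (St2 G a b) + 1 = Nat.card F) : Nat.card Q ≠ Nat.card F ^ 3 := fun cQ => by
  haveI := Fintype.ofFinite G
  obtain ⟨n, hn⟩ := IsPGroup.iff_card.1 (sg.isP.to_le sg.Zle)
  have q := sg.q2
  rw [← sg.cardZ, hn] at cD cQ q
  have n2 : 2 ≤ n := by
    by_contra! l
    interval_cases n <;> simp at q
  have cD' : Nat.card (St2 G a b) = 2 ^ n - 1 := by omega
  have c1 := fun x hx h1 w hw => sg.cls3 hΦ (by rw [cQ, ← sg.cardZ, hn]) (x := x) (z := w) hx h1 hw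
  obtain ⟨T, hT, H⟩ := cube_chars z (by rw [cD']; exact Nat.Even.sub_odd Nat.one_le_two_pow (Nat.even_pow.2 ⟨even_two, by omega⟩) odd_one)
    sg.Zle nZ (Nat.pow_le_pow_right two_pos n2 : 2 ^ 2 ≤ _) hn cQ cD' c1 (fun x hx x1 y hy y1 => by
      have x0 : π x ≠ 0 := fun e => x1 ((sg.Z0 hx).1 e)
      obtain ⟨k, hk, e⟩ := sg.co.psurj (π y / π x) (div_ne_zero (fun e => y1 ((sg.Z0 hy).1 e)) x0)
      exact ⟨k, hK hk, sg.Zeq (sg.co.cC hk hx) hy (by rw [sg.co.act k hk _ hx, e]; field_simp)⟩)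
    (commutator_le.2 fun x hx y hy => sg.cZ hΦ hx hy) fun x hx => by
      by_cases k : x ∈ Z
      · rw [inv_eq_self (sg.Zsq k)]
      · obtain ⟨y, -, e⟩ := c1 x hx k _ (sg.sZ hΦ (Q.inv_mem hx))
        exact isConj_iff.2 ⟨y, by rw [e]; group⟩
  obtain ⟨χ, hχ⟩ := Finset.card_pos.1 (zero_lt_two.trans hT)
  obtain ⟨i, -, r, s1, s2, -⟩ := H χ hχ
  have cl := irr_class i
  have key : ∀ x, (∀ c : Ω, x • c ≠ c) → IsConj x x⁻¹ → χ x = 0 := fun x hx e => by
    obtain ⟨g, e⟩ := isConj_iff.1 e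
    have ho := odd_fpf h.toR1 hx
    obtain ⟨u, u2, u3⟩ := exists_inv_of_real ho e
    have u1 : u ≠ 1 := fun f => hx a (by
      rw [f, one_mul, mul_one] at u3
      rw [eq_one_of_sq (odd_orderOf ho (mem_centralizer_singleton_iff.2 rfl)) (by nth_rewrite 2 [u3]; exact mul_inv_cancel x), one_smul])
    obtain ⟨s, hs, s1⟩ := exists_inv_of_even h.even
    obtain ⟨y, rfl⟩ := h.emb.conj_inv s1 ⟨u1, u2⟩
    rw [← class_conj' cl x y]
    refine real_zero z h sg.isP n2 cQ cD' (fun x hx => sg.Zsq (sg.sZ hΦ hx)) (fun x hx y hy => sg.Zsq (sg.cZ hΦ hx hy)) hT (fun ξ p => (H ξ p).1)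
      (fun ξ p => by rw [(H ξ p).2.1]; simp) (fun ξ p => (H ξ p).2.2.2.2.2) hχ (by rw [s2]; simp) hs s1
      (fun c e => hx (y • c) (by simpa [mul_smul, inv_smul_eq_iff] using e)) ?_
    rw [mul_inv_rev, mul_inv_rev, ← u3]; group
  rw [← Finset.sum_filter_add_sum_filter_not _ fun x => IsConj x x⁻¹, Finset.sum_eq_zero fun x p => key x (by simpa using (Finset.mem_filter.1 p).1)
    (Finset.mem_filter.1 p).2, zero_add] at s1
  have ac : ∀ (γ : Q × ℤˣ) (x : G), ∃ y, (y = x ∨ y = x⁻¹) ∧ (y = x⁻¹ ∨ γ.2 = 1) ∧ γ.1 * x ^ (γ.2 : ℤ) * (γ.1 : G)⁻¹ = γ.1 * y * (γ.1 : G)⁻¹ :=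
    fun γ x => by rcases Int.units_eq_one_or γ.2 with e | e <;> simp [e]
  obtain ⟨ω, hω, e⟩ := sum_mem_of_orbits (G := Q × ℤˣ) (intMul ((2 ^ n) ^ 3 * 2)) (fun γ x => γ.1 * x ^ (γ.2 : ℤ) * (γ.1 : G)⁻¹) (by simp)
    (fun γ δ x => by simp only [conj_zpow, ← zpow_mul, mul_comm (δ.2 : ℤ)]; simp [mul_assoc]) χ
    ((Finset.univ.filter fun g : G => ∀ c : Ω, g • c ≠ c).filter fun x => ¬ IsConj x x⁻¹) (fun γ x p => by
      simp only [Finset.mem_filter, Finset.mem_univ, true_and] at p ⊢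
      obtain ⟨y, h1, -, e⟩ := ac γ x
      rw [e]
      refine ⟨fun c f => ?_, fun f => p.2 ?_⟩
      · have := conj_smul_iff.1 f
        rcases h1 with rfl | rfl
        exacts [p.1 _ this, p.1 _ (inv_smul_eq_iff.1 this).symm]
      · have : IsConj y y⁻¹ := ((isConj_iff.2 ⟨(γ.1 : G), rfl⟩).trans f).trans (isConj_iff.2 ⟨(γ.1 : G), by group⟩).symm
        rcases h1 with rfl | rfl
        exacts [this, by simpa using this.symm]) (fun γ x p => by
      obtain ⟨y, h1, -, e⟩ := ac γ x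
      rw [e, cl]; rcases h1 with rfl | rfl
      exacts [rfl, r x]) fun x p S hS => by
      simp only [Finset.mem_filter, Finset.mem_univ, true_and] at p
      rw [show S = ⊥ from eq_bot_iff.2 fun γ hγ => by
        obtain ⟨y, h1, h2, e⟩ := ac γ x
        rw [hS, e] at hγ
        have h3 : y ≠ x⁻¹ := fun f => p.2 (isConj_iff.2 ⟨(γ.1 : G), by rwa [f] at hγ⟩).symm
        rw [h1.resolve_right h3] at hγ
        exact Prod.ext (Subtype.ext (eq_one_of_two_odd sg.isP (odd_fpf h.toR1 p.1) γ.1.2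
          (mem_centralizer_singleton_iff.2 (mul_inv_eq_iff_eq_mul.1 hγ)))) (h2.resolve_left h3),
        index_bot, Nat.card_prod, cQ, Nat.card_eq_fintype_card, Fintype.card_units_int]
      exact ⟨χ x, char_integral (irr_char i) x, by simp⟩
  rw [s1] at e
  have e1 : ω = (((2 ^ n) ^ 2 - 1 : ℤ) : ℂ) / ((2 : ℤ) : ℂ) := by
    simp only [AddMonoidHom.coe_mulLeft] at e
    push_cast at e ⊢; field_simp at e ⊢; linear_combination e
  have := int_dvd_of_isIntegral_div two_ne_zero (e1 ▸ hω)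
  have h2 : (2 : ℤ) ∣ (2 ^ n) ^ 2 := dvd_pow (dvd_pow_self 2 (by omega)) two_ne_zero
  omega

end SE
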